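import Cfsg.Agent.H203.LSTwF4

/-!
# S3691: the index of a proper subgroup of `²F₄(q)` is at least `q⁴` (helper418)

* `pow_le_finrank` : `Z`, `A i`, `B i` (`i ∈ ι`) root groups over `F` with `[A i a, B i b] = Z (a b)`, all other pairs except
  those among the `B`s commute: a representation in odd characteristic in which `Z 1` acts nontrivially has degree at least
  `|F| ^ |ι|`;
* `index_ge` : proper subgroups of `²F₄(q)`.
-/

set_option autoImplicit false
set_option linter.unusedSectionVars false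

universe u v w w'

namespace Cfsg.Agent.H418.Rg

open Cfsg.Lie Cfsg.Agent.KFacts.TwF4 Cfsg.Agent.H203.LS

/-- Heisenberg relations -/
structure HRel {F : Type u} [Field F] {ι : Type w'} {T : Type v} [Group T] (Z : F → T) (A B : ι → F → T) : Prop where
  Z_add : ∀ s t, Z (s + t) = Z s * Z t
  ZA : ∀ i s a, Z s * A i a = A i a * Z s
  ZB : ∀ i s b, Z s * B i b = B i b * Z s
  AA : ∀ i j a b, A i a * A j b = A j b * A i a
  AB : ∀ i j, i ≠ j → ∀ a b, A i a * B j b = B j b * A i a
  Z_eq : ∀ i a b, A i a * B i b = B i b * A i a * Z (a * b)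

namespace HRel

variable {F : Type u} [Field F] {ι : Type w'} {T : Type v} [Group T] {Z : F → T} {A B : ι → F → T}

theorem Z_zero (h : HRel Z A B) : Z 0 = 1 := by
  have h1 := h.Z_add 0 0
  rw [add_zero] at h1
  exact (mul_eq_left.1 h1.symm)

/-- the product of the `B i (b i)` -/
theorem exists_prod (h : HRel Z A B) [DecidableEq ι] (b : ι → F) (s : Finset ι) : ∃ g : T, (∀ x, Z x * g = g * Z x) ∧
    ∀ i a, A i a * g = g * A i a * Z (if i ∈ s then a * b i else 0) := by
  induction s using Finset.induction_on with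
  | empty =>
    refine ⟨1, fun x => by rw [mul_one, one_mul], fun i a => ?_⟩
    rw [if_neg (Finset.notMem_empty i), h.Z_zero, mul_one, mul_one, one_mul]
  | insert j s hj ih =>
    obtain ⟨g, h1, h2⟩ := ih
    refine ⟨B j (b j) * g, fun x => ?_, fun i a => ?_⟩
    · rw [← mul_assoc, h.ZB, mul_assoc, h1, mul_assoc]
    · by_cases hij : i = j
      · subst hij
        rw [if_pos (Finset.mem_insert_self i s)]
        have h3 := h2 i a
        rw [if_neg hj, h.Z_zero, mul_one] at h3
        calc A i a * (B i (b i) * g) = A i a * B i (b i) * g := by rw [mul_assoc]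
          _ = B i (b i) * A i a * (Z (a * b i) * g) := by rw [h.Z_eq, mul_assoc (B i (b i) * A i a)]
          _ = B i (b i) * (A i a * g) * Z (a * b i) := by rw [h1]; simp only [mul_assoc]
          _ = B i (b i) * g * A i a * Z (a * b i) := by rw [h3]; simp only [mul_assoc]
      · have h4 : (i ∈ insert j s) ↔ i ∈ s := by
          rw [Finset.mem_insert]
          exact ⟨fun h => h.resolve_left hij, Or.inr⟩
        simp only [h4]
        rw [← mul_assoc, h.AB i j hij, mul_assoc, h2 i a]
        simp only [mul_assoc]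

variable [Finite F] {k : Type w} [Field k] [IsAlgClosed k] {V : Type w} [AddCommGroup V] [Module k V]
  [FiniteDimensional k V]

theorem pow_le_finrank (h : HRel Z A B) [Fintype ι] (h2 : (2 : F) = 0) (hk : (2 : k) ≠ 0) (ρ : T →* (V →ₗ[k] V))
    (hρ : ρ (Z 1) ≠ 1) : Nat.card F ^ Fintype.card ι ≤ Module.finrank k V := by
  classical
  have hinj : ∀ (g : T) {v v' : V}, ρ g v = ρ g v' → v = v' := by
    intro g v v' hv
    have e : ∀ u : V, ρ g⁻¹ (ρ g u) = u := fun u => by
      rw [← Module.End.mul_apply, ← map_mul, inv_mul_cancel, map_one, Module.End.one_apply]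
    rw [← e v, ← e v', hv]
  obtain ⟨f, fZ, fA⟩ : ∃ f : Option ι × F → V →ₗ[k] V, (∀ s, f (none, s) = ρ (Z s)) ∧
      ∀ i a, f (some i, a) = ρ (A i a) :=
    ⟨fun j => match j with
      | (none, s) => ρ (Z s)
      | (some i, a) => ρ (A i a), fun _ => rfl, fun _ _ => rfl⟩
  have hZZ : ∀ s t, Z s * Z t = Z t * Z s := fun s t => by rw [← h.Z_add, ← h.Z_add, add_comm]
  have hcomm : ∀ i j, f i * f j = f j * f i := by
    rintro ⟨i | i, s⟩ ⟨j | j, t⟩
    · rw [fZ, fZ, ← map_mul, ← map_mul, hZZ]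
    · rw [fZ, fA, ← map_mul, ← map_mul, h.ZA]
    · rw [fZ, fA, ← map_mul, ← map_mul, h.ZA]
    · rw [fA, fA, ← map_mul, ← map_mul, h.AA]
  have hsq : f (none, 1) ^ 2 = 1 := by
    rw [fZ, ← map_pow, pow_two, ← h.Z_add, one_add_one_eq_two, h2, h.Z_zero, map_one]
  obtain ⟨v, χ, hv, hχ, hχ1⟩ := exists_weight f hcomm (j0 := (none, 1)) (N := 2) (by exact_mod_cast hk) hsq (by rwa [fZ])
  have hχ0 : ∀ j, χ j ≠ 0 := by
    rintro ⟨i | i, s⟩ h0
    · have h3 := hχ (none, s)
      rw [h0, zero_smul, fZ, ← map_zero (ρ (Z s))] at h3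
      exact hv (hinj _ h3)
    · have h3 := hχ (some i, s)
      rw [h0, zero_smul, fA, ← map_zero (ρ (A i s))] at h3
      exact hv (hinj _ h3)
  have hχadd : ∀ s t, χ (none, s + t) = χ (none, s) * χ (none, t) := by
    intro s t
    have h3 := hχ (none, s + t)
    rw [fZ, h.Z_add, map_mul, Module.End.mul_apply, ← fZ, ← fZ, hχ, map_smul, hχ, smul_smul] at h3
    have h4 := smul_left_injective k hv h3
    rw [← h4, mul_comm]
  choose g hg1 hg2 using fun b : ι → F => h.exists_prod b Finset.univ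
  have key : ∀ (b : ι → F) (j : Option ι × F), f j (ρ (g b) v) =
      (χ j * match j with | (none, _) => 1 | (some i, a) => χ (none, a * b i)) • ρ (g b) v := by
    rintro b ⟨i | i, s⟩
    · show f (none, s) (ρ (g b) v) = (χ (none, s) * 1) • ρ (g b) v
      rw [mul_one, fZ, ← Module.End.mul_apply, ← map_mul, hg1, map_mul, Module.End.mul_apply, ← fZ, hχ, map_smul]
    · show f (some i, s) (ρ (g b) v) = (χ (some i, s) * χ (none, s * b i)) • ρ (g b) v
      have h3 := hg2 b i s
      rw [if_pos (Finset.mem_univ i)] at h3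
      rw [fA, ← Module.End.mul_apply, ← map_mul, h3, map_mul, Module.End.mul_apply, ← fZ, hχ, map_smul, map_mul,
        Module.End.mul_apply, ← fA, hχ, map_smul, smul_smul, mul_comm]
  have hle := card_le_of_weights (k := k) (V := V) f (fun b : ι → F => ρ (g b) v)
    (fun b j => χ j * match j with | (none, _) => 1 | (some i, a) => χ (none, a * b i)) ?_ key ?_
  · rw [← Nat.card_eq_fintype_card, ← Nat.card_fun]
    exact hle
  · intro b h0
    rw [← map_zero (ρ (g b))] at h0
    exact hv (hinj _ h0)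
  · intro b b' hbb
    funext i
    by_contra hne
    apply hχ1
    have h3 : χ (some i, (b i - b' i)⁻¹) * χ (none, (b i - b' i)⁻¹ * b i) =
        χ (some i, (b i - b' i)⁻¹) * χ (none, (b i - b' i)⁻¹ * b' i) := congrFun hbb (some i, (b i - b' i)⁻¹)
    have h4 := mul_left_cancel₀ (hχ0 _) h3
    have h5 : (b i - b' i)⁻¹ * b i = 1 + (b i - b' i)⁻¹ * b' i := by
      have h6 := sub_ne_zero.2 hne
      field_simp
      ring
    rw [h5, hχadd] at h4
    exact (mul_eq_right₀ (hχ0 _)).1 h4

end HRel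

/-- the index of a proper subgroup -/
theorem HRel.pow_le_index {F : Type u} [Field F] [Finite F] {ι : Type w'} {T : Type} [Group T] {Z : F → T}
    {A B : ι → F → T} (h : HRel Z A B) [Fintype ι] [Finite T] [IsSimpleGroup T] (h2 : (2 : F) = 0) (hZ : Z 1 ≠ 1)
    {Y : Subgroup T} (hY : Y ≠ ⊤) : Nat.card F ^ Fintype.card ι ≤ Y.index := by
  classical
  have : Fintype (T ⧸ Y) := Fintype.ofFinite _
  let ρ : T →* ((T ⧸ Y → ℂ) →ₗ[ℂ] (T ⧸ Y → ℂ)) :=
    { toFun := fun g => LinearMap.funLeft ℂ ℂ fun x : T ⧸ Y => g⁻¹ • x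
      map_one' := by
        ext f x
        simp [LinearMap.funLeft]
      map_mul' := fun a b => by
        refine LinearMap.ext fun f => funext fun x => ?_
        simp only [Module.End.mul_apply, LinearMap.funLeft_apply, mul_inv_rev, mul_smul] }
  have hρ : ∀ g f x, ρ g f x = f (g⁻¹ • x) := fun _ _ _ => rfl
  have h1 := h.pow_le_finrank (k := ℂ) (V := T ⧸ Y → ℂ) h2 two_ne_zero ρ ?_
  · rw [Module.finrank_fintype_fun_eq_card, ← Nat.card_eq_fintype_card (α := T ⧸ Y)] at h1
    exact h1
  · intro hone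
    have h3 : Z 1 ∈ Y.normalCore := by
      rw [Subgroup.normalCore_eq_ker, MonoidHom.mem_ker]
      ext x
      rw [MulAction.toPermHom_apply, MulAction.toPerm_apply, Equiv.Perm.coe_one, id_eq]
      by_contra hne
      have h4 := congrFun (LinearMap.congr_fun hone (Pi.single x 1)) (Z 1 • x)
      rw [hρ, inv_smul_smul, Module.End.one_apply, Pi.single_eq_same, Pi.single_eq_of_ne hne] at h4
      exact one_ne_zero h4
    rcases (Subgroup.normalCore_normal Y).eq_bot_or_eq_top with h4 | h4
    · rw [h4, Subgroup.mem_bot] at h3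
      exact hZ h3
    · exact hY (top_le_iff.1 (h4 ▸ Subgroup.normalCore_le Y))

/-! ### `²F₄(q)` -/

section TwF4

variable {F : Type u} [Field F] {σ : F →+* F} {T : Type v} [Group T] (S : Sys σ T)

theorem o_zero (a : ZMod 8) : S.o a 0 = 1 := by
  have := S.o_add a 0 0
  rw [add_zero] at this
  exact mul_eq_left.1 this

theorem e_zero (a : ZMod 8) : S.e a 0 0 = 1 := by
  have := S.e_mul a 0 0 0 0
  simp only [add_zero, map_zero, mul_zero] at this
  exact mul_eq_left.1 this

/-- the central root group `Z(X_4)` with `Z(X_2)`, `X_3`, `X_5`, `Z(X_6)` against `X_7`, `X_6`, `X_2`, `X_1` -/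
theorem hRel (h2 : (2 : F) = 0) : HRel (ι := Fin 4) (fun s => S.e 2 0 s)
    ![fun u => S.e 1 0 u, fun t => S.o 1 t, fun t => S.o 2 t, fun u => S.e 3 0 u]
    ![fun s => S.o 3 s, fun q => S.e 3 q 0, fun p => S.e 1 p 0, fun s => S.o 0 s] := by
  have inv : ∀ (a : ZMod 8) (s : F), S.e a 0 s * S.e a 0 s = 1 := fun a s => by
    rw [S.e_mul, zero_mul, add_zero, add_zero, ← two_mul, h2, zero_mul, e_zero]
  have cc : ∀ (a : ZMod 8) (p u s : F), S.e a p u * S.e a 0 s = S.e a 0 s * S.e a p u := fun a p u s => by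
    rw [S.e_mul, S.e_mul]
    congr 1
    · rw [add_comm]
    · rw [map_zero, mul_zero, zero_mul]; ring
  have e00 : ∀ (a : ZMod 8) (p u v : F), S.e a p u * S.e (a + 1) 0 v = S.e (a + 1) 0 v * S.e a p u := fun a p u v => by
    rw [S.e_e1, mul_zero, o_zero, mul_one]
  have e01 : ∀ (a : ZMod 8) (u q v : F), S.e a 0 u * S.e (a + 1) q v = S.e (a + 1) q v * S.e a 0 u := fun a u q v => by
    rw [S.e_e1, zero_mul, o_zero, mul_one]
  have zo : ∀ (a : ZMod 8) (u s : F), S.e a 0 u * S.o (a + 1) s = S.o (a + 1) s * S.e a 0 u := fun a u s => by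
    rw [S.e_o1, zero_mul, e_zero, mul_one]
  have oz : ∀ (a : ZMod 8) (t v : F), S.o a t * S.e (a + 2) 0 v = S.e (a + 2) 0 v * S.o a t := fun a t v => by
    rw [S.o_e2, mul_zero, e_zero, mul_one]
  have oo : ∀ (a : ZMod 8) (t s : F), S.o a t * S.o a s = S.o a s * S.o a t := fun a t s => by
    rw [S.o_add, S.o_add, add_comm]
  have flip : ∀ {x y z : T}, x * y = y * x * z → z * z = 1 → y * x = x * y * z := fun {x y z} h1 h3 => by
    rw [h1, mul_assoc (y * x), h3, mul_one]
  refine ⟨fun s t => ?_, fun i => ?_, fun i => ?_, fun i j => ?_, fun i j => ?_, fun i => ?_⟩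
  · show S.e 2 0 (s + t) = S.e 2 0 s * S.e 2 0 t
    rw [S.e_mul, zero_mul, add_zero, add_zero]
  · fin_cases i
    · exact fun s a => (e00 1 0 a s).symm
    · exact fun s a => (S.o_e1 1 a 0 s).symm
    · exact fun s a => S.e_o0 2 0 s a
    · exact fun s a => e01 2 s 0 a
  · fin_cases i
    · exact fun s b => zo 2 s b
    · exact fun s b => e01 2 s b 0
    · exact fun s b => (e00 1 b 0 s).symm
    · exact fun s b => (oz 0 b s).symm
  · fin_cases i <;> fin_cases j
    · exact fun a b => cc 1 0 a b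
    · exact fun a b => S.e_o0 1 0 a b
    · exact fun a b => zo 1 a b
    · exact fun a b => S.e_e2 1 0 a 0 b
    · exact fun a b => (S.e_o0 1 0 b a).symm
    · exact fun a b => oo 1 a b
    · exact fun a b => S.o_o1 1 a b
    · exact fun a b => oz 1 a b
    · exact fun a b => (zo 1 b a).symm
    · exact fun a b => (S.o_o1 1 b a).symm
    · exact fun a b => oo 2 a b
    · exact fun a b => S.o_e1 2 a 0 b
    · exact fun a b => (S.e_e2 1 0 b 0 a).symm
    · exact fun a b => (oz 1 b a).symm
    · exact fun a b => (S.o_e1 2 b 0 a).symm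
    · exact fun a b => cc 3 0 a b
  · fin_cases i <;> fin_cases j
    · exact fun hij => absurd rfl hij
    · exact fun _ a b => S.e_e2 1 0 a b 0
    · exact fun _ a b => (cc 1 b 0 a).symm
    · exact fun _ a b => (S.o_e1 0 b 0 a).symm
    · exact fun _ a b => S.o_o2 1 a b
    · exact fun hij => absurd rfl hij
    · exact fun _ a b => (S.e_o0 1 b 0 a).symm
    · exact fun _ a b => (S.o_o1 0 b a).symm
    · exact fun _ a b => S.o_o1 2 a b
    · exact fun _ a b => S.o_e1 2 a b 0
    · exact fun hij => absurd rfl hij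
    · exact fun _ a b => (S.o_o2 0 b a).symm
    · exact fun _ a b => S.e_o0 3 0 a b
    · exact fun _ a b => (cc 3 b 0 a).symm
    · exact fun _ a b => (S.e_e2 1 b 0 0 a).symm
    · exact fun hij => absurd rfl hij
  · fin_cases i
    · intro a b
      have h := S.e_o2 1 0 a b
      rw [map_zero, zero_mul, zero_mul, zero_mul, zero_add, o_zero, mul_one, e_zero, mul_one] at h
      exact h
    · exact fun a b => S.o_e2 1 a b 0
    · intro a b
      have h := S.e_o1 1 b 0 a
      rw [mul_comm b a] at h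
      exact flip h (inv _ _)
    · intro a b
      have h := S.o_e3 0 b 0 a
      rw [mul_zero, map_zero, mul_zero, mul_zero, zero_add, e_zero, mul_one, o_zero, mul_one, mul_comm b a] at h
      have h' : S.o 0 b * S.e 3 0 a = S.e 3 0 a * S.o 0 b * S.e 2 0 (0 + a * b) := h
      rw [zero_add] at h'
      exact flip h' (inv _ _)

end TwF4

open Cfsg.Agent.KFacts.TwF4.Inst in
/-- **The index of a proper subgroup of `²F₄(q)` is at least `q⁴`.** -/
theorem index_ge {F : Type} [Field F] [Fintype F] {m : ℕ} (hm : 1 ≤ m) (hF : Fintype.card F = 2 ^ (2 * m + 1))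
    {Y : Subgroup ↥(twistedF4 F (2 ^ m))} (hY : Y ≠ ⊤) : (2 ^ (2 * m + 1)) ^ 4 ≤ Y.index := by
  have := (Cfsg.Agent.S1072.result hm hF).1
  have : CharP F 2 := charP_of_card Nat.prime_two hF
  obtain ⟨φ, hφ⟩ := Cfsg.Agent.ChevalleyStructure.TwF4.TwistedFix.exists_rln hF
  have h2 : (2 : F) = 0 := by exact_mod_cast CharP.cast_eq_zero F 2
  have : Finite ↥(twistedF4 F (2 ^ m)) := Subtype.finite
  have h := (hRel (sys hφ) h2).pow_le_index h2 (fun h1 => one_ne_zero
    ((sys hφ).injE 2 0 1 0 0 (by rw [e_zero]; exact h1)).2) hY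
  rwa [Nat.card_eq_fintype_card, hF, Fintype.card_fin] at h

end Cfsg.Agent.H418.Rg
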